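import Cfsg.Agent.Cop.Basic
import Cfsg.Prelude.Def_LocalEven
import Mathlib.GroupTheory.Sylow

/-!
# S2755, piece P5c1: a group with abelian Sylow 2-subgroups is `S₄`-free
-/

set_option autoImplicit false

namespace Cfsg.Agent.H35.RtP5c1

open Subgroup
open scoped Pointwise

theorem no_abelian_sylow (T : Sylow 2 (Equiv.Perm (Fin 4))) (hT : ∀ x ∈ T, ∀ y ∈ T, x * y = y * x) : False := by
  have : Fact (Nat.Prime 2) := ⟨Nat.prime_two⟩
  have hc : Nat.card (centralizer ({Equiv.swap (0 : Fin 4) 2 * Equiv.swap 1 3} : Set (Equiv.Perm (Fin 4)))) = 8 := by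
    classical
    have h1 : Nat.card (centralizer ({Equiv.swap (0 : Fin 4) 2 * Equiv.swap 1 3} : Set (Equiv.Perm (Fin 4))))
        = (Finset.univ.filter (fun g : Equiv.Perm (Fin 4) =>
          g * (Equiv.swap (0 : Fin 4) 2 * Equiv.swap 1 3) = (Equiv.swap (0 : Fin 4) 2 * Equiv.swap 1 3) * g)).card := by
      rw [Nat.card_eq_fintype_card, Fintype.card_subtype]
      congr 1
      ext g
      simp only [Finset.mem_filter, Finset.mem_univ, true_and, mem_centralizer_singleton_iff]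
    rw [h1]
    decide +kernel
  have hD : IsPGroup 2 (centralizer ({Equiv.swap (0 : Fin 4) 2 * Equiv.swap 1 3} : Set (Equiv.Perm (Fin 4)))) :=
    IsPGroup.of_card (n := 3) (by rw [hc]; norm_num)
  obtain ⟨T', hT'⟩ := hD.exists_le_sylow
  obtain ⟨g, hg⟩ := MulAction.exists_smul_eq (Equiv.Perm (Fin 4)) T T'
  have key : ∀ x : Equiv.Perm (Fin 4), x * (Equiv.swap (0 : Fin 4) 2 * Equiv.swap 1 3)
      = (Equiv.swap (0 : Fin 4) 2 * Equiv.swap 1 3) * x → g⁻¹ * x * g ∈ T := by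
    intro x hx
    have h1 : x ∈ (T' : Subgroup (Equiv.Perm (Fin 4))) := hT' (mem_centralizer_singleton_iff.2 hx)
    rw [← hg, Sylow.coe_subgroup_smul, Hall.mem_conj_smul] at h1
    exact h1
  have h1 := key (Equiv.swap 0 2) (by decide +kernel)
  have h2 := key (Equiv.swap 0 1 * Equiv.swap 2 3) (by decide +kernel)
  have h3 := hT _ h1 _ h2
  have h4 : Equiv.swap (0 : Fin 4) 2 * (Equiv.swap 0 1 * Equiv.swap 2 3)
      = (Equiv.swap 0 1 * Equiv.swap 2 3) * Equiv.swap 0 2 := by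
    have e1 : ∀ a b : Equiv.Perm (Fin 4), a * b = g * ((g⁻¹ * a * g) * (g⁻¹ * b * g)) * g⁻¹ := by
      intro a b; group
    rw [e1, h3, ← e1]
  revert h4
  decide +kernel

/-- [P5c1] -/
theorem s4_free_of_ab {G : Type*} [Group G] [Finite G] (h : ∀ S : Sylow 2 G, ∀ x ∈ S, ∀ y ∈ S, x * y = y * x) :
    ¬ Cfsg.Involves (Equiv.Perm (Fin 4)) G := by
  rintro ⟨K, R, hR, ⟨e⟩⟩
  have : Fact (Nat.Prime 2) := ⟨Nat.prime_two⟩
  let f : ↥K →* Equiv.Perm (Fin 4) := e.toMonoidHom.comp (QuotientGroup.mk' (R.subgroupOf K))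
  have hf : Function.Surjective f := e.surjective.comp (QuotientGroup.mk'_surjective _)
  obtain ⟨P⟩ : Nonempty (Sylow 2 K) := inferInstance
  obtain ⟨S, hS⟩ := (P.2.map K.subtype).exists_le_sylow
  apply no_abelian_sylow (P.mapSurjective hf)
  intro x hx y hy
  have hx' : x ∈ (P : Subgroup K).map f := hx
  have hy' : y ∈ (P : Subgroup K).map f := hy
  obtain ⟨a, ha, rfl⟩ := hx'
  obtain ⟨b, hb, rfl⟩ := hy'
  have h1 : (a : G) ∈ S := hS ⟨a, ha, rfl⟩
  have h2 : (b : G) ∈ S := hS ⟨b, hb, rfl⟩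
  have h3 : a * b = b * a := Subtype.ext (h S _ h1 _ h2)
  rw [← map_mul, h3, map_mul]

end Cfsg.Agent.H35.RtP5c1
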