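import Cfsg.Agent.Cop.Basic
import Cfsg.Prelude.Def_LocalEven
import Mathlib.GroupTheory.Sylow
import Mathlib.GroupTheory.SpecificGroups.Alternating

/-!
# S2755, piece P5c2: a group with TI Sylow 2-subgroups is `S₄`-free
-/

set_option autoImplicit false

namespace Cfsg.Agent.H35.RtP5c2

open Subgroup
open scoped Pointwise

/-- the property is inherited by subgroups -/
theorem ti_sub {G : Type*} [Group G] [Finite G]
    (h : ∀ S T : Sylow 2 G, S ≠ T → S.toSubgroup ⊓ T.toSubgroup = ⊥) (K : Subgroup G)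
    (S T : Sylow 2 K) (hST : S ≠ T) : S.toSubgroup ⊓ T.toSubgroup = ⊥ := by
  have : Fact (Nat.Prime 2) := ⟨Nat.prime_two⟩
  rw [eq_bot_iff]
  intro x hx
  rw [mem_bot]
  by_contra hx1
  apply hST
  obtain ⟨S', hS'⟩ := (S.2.map K.subtype).exists_le_sylow
  obtain ⟨T', hT'⟩ := (T.2.map K.subtype).exists_le_sylow
  have hST' : S' = T' := by
    by_contra hne
    have h1 : (x : G) ∈ S'.toSubgroup ⊓ T'.toSubgroup := ⟨hS' ⟨x, hx.1, rfl⟩, hT' ⟨x, hx.2, rfl⟩⟩
    rw [h _ _ hne, mem_bot] at h1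
    exact hx1 (Subtype.ext h1)
  have hp : IsPGroup 2 ↥((S' : Subgroup G).subgroupOf K) := S'.2.comap_subtype
  have h1 : (S : Subgroup K) ≤ (S' : Subgroup G).subgroupOf K := fun y hy => hS' ⟨y, hy, rfl⟩
  have h2 : (T : Subgroup K) ≤ (S' : Subgroup G).subgroupOf K := fun y hy => by
    rw [hST']
    exact hT' ⟨y, hy, rfl⟩
  have h3 := S.3 hp h1
  have h4 := T.3 hp h2
  exact Sylow.ext (h3.symm.trans h4)

/-- the four-group -/
def V : Subgroup (Equiv.Perm (Fin 4)) where
  carrier := {x | x = 1 ∨ x = Equiv.swap 0 1 * Equiv.swap 2 3 ∨ x = Equiv.swap 0 2 * Equiv.swap 1 3 ∨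
    x = Equiv.swap 0 3 * Equiv.swap 1 2}
  one_mem' := Or.inl rfl
  mul_mem' := by
    rintro a b (rfl | rfl | rfl | rfl) (rfl | rfl | rfl | rfl) <;> simp only [Set.mem_ofPred_eq] <;> decide +kernel
  inv_mem' := by
    rintro a (rfl | rfl | rfl | rfl) <;> simp only [Set.mem_ofPred_eq] <;> decide +kernel

theorem V_normal : V.Normal := by
  constructor
  have h : ∀ n : Equiv.Perm (Fin 4), (n = 1 ∨ n = Equiv.swap 0 1 * Equiv.swap 2 3 ∨ n = Equiv.swap 0 2 * Equiv.swap 1 3 ∨
    n = Equiv.swap 0 3 * Equiv.swap 1 2) → ∀ g : Equiv.Perm (Fin 4), (g * n * g⁻¹ = 1 ∨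
      g * n * g⁻¹ = Equiv.swap 0 1 * Equiv.swap 2 3 ∨ g * n * g⁻¹ = Equiv.swap 0 2 * Equiv.swap 1 3 ∨
    g * n * g⁻¹ = Equiv.swap 0 3 * Equiv.swap 1 2) := by
    decide +kernel
  intro n hn g
  exact h n hn g

theorem V_two : IsPGroup 2 V := by
  rintro ⟨x, hx⟩
  refine ⟨1, Subtype.ext ?_⟩
  show x ^ 2 ^ 1 = 1
  rcases hx with rfl | rfl | rfl | rfl <;> decide +kernel

/-- [P5c2] -/
theorem s4_free_of_ti {G : Type*} [Group G] [Finite G]
    (h : ∀ S T : Sylow 2 G, S ≠ T → S.toSubgroup ⊓ T.toSubgroup = ⊥) :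
    ¬ Cfsg.Involves (Equiv.Perm (Fin 4)) G := by
  rintro ⟨K, R, hR, ⟨e⟩⟩
  have : Fact (Nat.Prime 2) := ⟨Nat.prime_two⟩
  let f : ↥K →* Equiv.Perm (Fin 4) := e.toMonoidHom.comp (QuotientGroup.mk' (R.subgroupOf K))
  have hf : Function.Surjective f := e.surjective.comp (QuotientGroup.mk'_surjective _)
  have hVn := V_normal
  have hNn : (V.comap f).Normal := hVn.comap f
  obtain ⟨P0⟩ : Nonempty (Sylow 2 (V.comap f)) := inferInstance
  have hfr := Sylow.normalizer_sup_eq_top P0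
  obtain ⟨P, hP⟩ := (P0.2.map (V.comap f).subtype).exists_le_sylow
  obtain ⟨Q0, hQ0⟩ : ∃ Q0 : Subgroup K, Q0 = (P0 : Subgroup (V.comap f)).map (V.comap f).subtype := ⟨_, rfl⟩
  rw [← hQ0] at hfr
  have hQP : Q0 ≤ (P : Subgroup K) := by rw [hQ0]; exact hP
  -- `Q0` is not trivial
  have hne : Q0 ≠ ⊥ := by
    intro h0
    rw [hQ0, Subgroup.map_eq_bot_iff, ker_subtype, le_bot_iff] at h0
    have h2 : 2 ∣ Nat.card (V.comap f) := by
      obtain ⟨k, hk⟩ := hf (Equiv.swap 0 1 * Equiv.swap 2 3)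
      have hkV : k ∈ V.comap f := by
        rw [mem_comap, hk]
        exact Or.inr (Or.inl rfl)
      have h3 : orderOf (f k) ∣ orderOf k := orderOf_map_dvd f k
      have h4 : orderOf (f k) = 2 := by
        rw [hk]
        exact orderOf_eq_prime (by decide +kernel) (by decide +kernel)
      have h5 : orderOf (⟨k, hkV⟩ : V.comap f) ∣ Nat.card (V.comap f) := orderOf_dvd_natCard _
      rw [orderOf_mk] at h5
      rw [h4] at h3
      exact h3.trans h5
    exact P0.ne_bot_of_dvd_card h2 h0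
  have hNP : normalizer (Q0 : Set K) ≤ normalizer ((P : Subgroup K) : Set K) := by
    intro n hn
    by_contra hcon
    have hsm : n • P ≠ P := by
      intro h1
      exact hcon (Sylow.smul_eq_iff_mem_normalizer.1 h1)
    have h1 := ti_sub h K (n • P) P hsm
    apply hne
    rw [eq_bot_iff, ← h1]
    refine le_inf ?_ hQP
    intro y hy
    show y ∈ ((n • P : Sylow 2 K) : Subgroup K)
    rw [Sylow.coe_subgroup_smul, Hall.mem_conj_smul]
    apply hQP
    exact (mem_normalizer_iff''.1 hn y).1 hy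
  -- the image of `P` is normal
  have hTn : ((P : Subgroup K).map f).Normal := by
    rw [← normalizer_eq_top_iff, eq_top_iff]
    intro x _
    obtain ⟨k, rfl⟩ := hf x
    have hk : k ∈ normalizer (Q0 : Set K) ⊔ V.comap f := by rw [hfr]; trivial
    have h1 : normalizer (Q0 : Set K) ⊔ V.comap f ≤ (normalizer (((P : Subgroup K).map f : Subgroup _) : Set (Equiv.Perm (Fin 4)))).comap f := by
      apply sup_le
      · intro n hn
        have h2 := hNP hn
        rw [mem_comap, mem_normalizer_iff]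
        intro y
        constructor
        · rintro ⟨a, ha, rfl⟩
          exact ⟨n * a * n⁻¹, (mem_normalizer_iff.1 h2 a).1 ha, by simp⟩
        · rintro ⟨a, ha, hay⟩
          refine ⟨n⁻¹ * a * n, (mem_normalizer_iff''.1 h2 a).1 ha, ?_⟩
          rw [map_mul, map_mul, hay, map_inv]
          group
      · intro n hn
        rw [mem_comap]
        apply le_normalizer
        have h3 : V ≤ ((P.mapSurjective hf : Sylow 2 _) : Subgroup (Equiv.Perm (Fin 4))) := by
          obtain ⟨T1, hT1⟩ := V_two.exists_le_sylow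
          obtain ⟨g, hg⟩ := MulAction.exists_smul_eq (Equiv.Perm (Fin 4)) T1 (P.mapSurjective hf)
          intro v hv
          rw [← hg, Sylow.coe_subgroup_smul, Hall.mem_conj_smul]
          apply hT1
          have := hVn.conj_mem v hv g⁻¹
          rwa [inv_inv] at this
        exact h3 hn
    exact h1 hk
  have hall : ∀ x : Equiv.Perm (Fin 4), x ^ 2 = 1 → x ∈ (P : Subgroup K).map f := by
    intro x hx
    have hup : IsPGroup 2 (zpowers x) := by
      have h1 : orderOf x ∣ 2 := orderOf_dvd_of_pow_eq_one hx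
      rw [IsPGroup.iff_card, Nat.card_zpowers]
      rcases (Nat.dvd_prime Nat.prime_two).1 h1 with h | h
      · exact ⟨0, by rw [h]; norm_num⟩
      · exact ⟨1, by rw [h]; norm_num⟩
    obtain ⟨S', hS'⟩ := hup.exists_le_sylow
    obtain ⟨g, hg⟩ := MulAction.exists_smul_eq (Equiv.Perm (Fin 4)) (P.mapSurjective hf) S'
    have h1 : x ∈ (S' : Subgroup (Equiv.Perm (Fin 4))) := hS' (mem_zpowers x)
    rw [← hg, Sylow.coe_subgroup_smul, Hall.mem_conj_smul] at h1
    have h2 : g⁻¹ * x * g ∈ (P : Subgroup K).map f := h1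
    have h3 := hTn.conj_mem _ h2 g
    have h4 : g * (g⁻¹ * x * g) * g⁻¹ = x := by group
    rwa [h4] at h3
  have h1 := hall (Equiv.swap 0 1) (by decide +kernel)
  have h2 := hall (Equiv.swap 1 2) (by decide +kernel)
  have h3 := mul_mem h1 h2
  have hp : IsPGroup 2 ((P : Subgroup K).map f) := P.2.map f
  obtain ⟨k, hk⟩ := hp ⟨_, h3⟩
  have h4 : (Equiv.swap (0 : Fin 4) 1 * Equiv.swap 1 2) ^ 2 ^ k = 1 := congrArg Subtype.val hk
  have h5 : orderOf (Equiv.swap (0 : Fin 4) 1 * Equiv.swap 1 2) = 3 := by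
    have : Fact (Nat.Prime 3) := ⟨Nat.prime_three⟩
    exact orderOf_eq_prime (by decide +kernel) (by decide +kernel)
  have h6 := orderOf_dvd_of_pow_eq_one h4
  rw [h5] at h6
  have h7 := Nat.prime_three.dvd_of_dvd_pow h6
  omega

end Cfsg.Agent.H35.RtP5c2
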