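import Cfsg.Agent.Cop.Basic
import Mathlib.GroupTheory.Sylow
import Mathlib.GroupTheory.FixedPointFree
import Mathlib.Combinatorics.Enumerative.DoubleCounting

/-!
# A group with a self-centralizing four-group, one class of involutions and no `S₃`-like inversion has order 12
-/

set_option autoImplicit false
set_option linter.unusedSectionVars false

namespace Cfsg.Agent.H35.RtQ

open Subgroup
open scoped Pointwise

variable {Y : Type*} [Group Y] [Finite Y]

section Local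

theorem no_inv (hI : ∀ u : Y, u ≠ 1 → u * u = 1 → ∀ c : Y, c * u = u * c → c * c = 1)
    {y : Y} (hy : y * y ≠ 1) {w : Y} (hw : w * y = y * w) (hw2 : w * w = 1) : w = 1 := by
  by_contra h
  exact hy (hI w h hw2 y hw.symm)

theorem inverts (hI : ∀ u : Y, u ≠ 1 → u * u = 1 → ∀ c : Y, c * u = u * c → c * c = 1)
    {y t : Y} (hy : y * y ≠ 1) (ht : t ≠ 1) (ht2 : t * t = 1) (hty : t * y * t⁻¹ = y⁻¹)
    {c : Y} (hc : c * y = y * c) : t * c * t⁻¹ = c⁻¹ := by
  have hst : ∀ c : Y, c ∈ centralizer ({y} : Set Y) → t * c * t⁻¹ ∈ centralizer ({y} : Set Y) := by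
    intro c hc
    rw [mem_centralizer_singleton_iff] at hc ⊢
    have h1 : y = t * y⁻¹ * t⁻¹ := by
      have h : t * y⁻¹ * t⁻¹ = (t * y * t⁻¹)⁻¹ := by group
      rw [h, hty, inv_inv]
    have h2 : c * y⁻¹ = y⁻¹ * c := by
      rw [mul_inv_eq_iff_eq_mul, mul_assoc, hc, inv_mul_cancel_left]
    calc t * c * t⁻¹ * y = t * c * t⁻¹ * (t * y⁻¹ * t⁻¹) := by rw [← h1]
      _ = t * (c * y⁻¹) * t⁻¹ := by group
      _ = t * (y⁻¹ * c) * t⁻¹ := by rw [h2]
      _ = (t * y⁻¹ * t⁻¹) * (t * c * t⁻¹) := by group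
      _ = y * (t * c * t⁻¹) := by rw [← h1]
  let φ : centralizer ({y} : Set Y) →* centralizer ({y} : Set Y) :=
    { toFun := fun c => ⟨t * c * t⁻¹, hst c c.2⟩
      map_one' := by ext; simp
      map_mul' := by intro a b; ext; simp [mul_assoc] }
  have hf : MonoidHom.FixedPointFree φ := by
    rintro ⟨c, hc⟩ h
    have h1 : t * c * t⁻¹ = c := congrArg Subtype.val h
    have h2 : c * t = t * c := by rw [mul_inv_eq_iff_eq_mul] at h1; exact h1.symm
    have h3 := hI t ht ht2 c h2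
    apply Subtype.ext
    exact no_inv hI hy (mem_centralizer_singleton_iff.1 hc) h3
  have h2 : Function.Involutive φ := by
    rintro ⟨c, hc⟩
    apply Subtype.ext
    show t * (t * c * t⁻¹) * t⁻¹ = c
    have : t * (t * c * t⁻¹) * t⁻¹ = (t * t) * c * (t * t)⁻¹ := by group
    rw [this, ht2]; group
  have h3 := congrFun (hf.coe_eq_inv_of_involutive h2) ⟨c, mem_centralizer_singleton_iff.2 hc⟩
  exact congrArg Subtype.val h3

theorem comm_of (hI : ∀ u : Y, u ≠ 1 → u * u = 1 → ∀ c : Y, c * u = u * c → c * c = 1)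
    {y t : Y} (hy : y * y ≠ 1) (ht : t ≠ 1) (ht2 : t * t = 1) (hty : t * y * t⁻¹ = y⁻¹)
    {c d : Y} (hc : c * y = y * c) (hd : d * y = y * d) : c * d = d * c := by
  have h1 := inverts hI hy ht ht2 hty hc
  have h2 := inverts hI hy ht ht2 hty hd
  have h3 : (c * d) * y = y * (c * d) := by rw [mul_assoc, hd, ← mul_assoc, hc, mul_assoc]
  have h4 := inverts hI hy ht ht2 hty h3
  have h5 : t * (c * d) * t⁻¹ = (t * c * t⁻¹) * (t * d * t⁻¹) := by group
  rw [h5, h1, h2, ← mul_inv_rev, inv_inj] at h4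
  exact h4.symm

theorem cent_eq (hI : ∀ u : Y, u ≠ 1 → u * u = 1 → ∀ c : Y, c * u = u * c → c * c = 1)
    {y t : Y} (hy : y * y ≠ 1) (ht : t ≠ 1) (ht2 : t * t = 1) (hty : t * y * t⁻¹ = y⁻¹)
    {x : Y} (hx : x * y = y * x) (hx1 : x ≠ 1) (c : Y) : c * x = x * c ↔ c * y = y * c := by
  constructor
  · intro h
    have h1 : x * x ≠ 1 := fun h => hx1 (no_inv hI hy hx h)
    exact comm_of hI h1 ht ht2 (inverts hI hy ht ht2 hty hx) h hx.symm
  · intro h
    exact comm_of hI hy ht ht2 hty h hx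

theorem odd_cent (hI : ∀ u : Y, u ≠ 1 → u * u = 1 → ∀ c : Y, c * u = u * c → c * c = 1)
    {y : Y} (hy : y * y ≠ 1) : Odd (Nat.card (centralizer ({y} : Set Y))) := by
  rw [← Nat.not_even_iff_odd]
  intro he
  have : Fact (Nat.Prime 2) := ⟨Nat.prime_two⟩
  obtain ⟨⟨w, hw⟩, hw2⟩ := exists_prime_orderOf_dvd_card' (G := centralizer ({y} : Set Y)) 2 he.two_dvd
  rw [orderOf_mk] at hw2
  have h1 : w * w = 1 := by rw [← sq, ← hw2, pow_orderOf_eq_one]
  have h2 := no_inv hI hy (mem_centralizer_singleton_iff.1 hw) h1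
  rw [h2, orderOf_one] at hw2
  exact absurd hw2 (by norm_num)

theorem exists_sqrt (hI : ∀ u : Y, u ≠ 1 → u * u = 1 → ∀ c : Y, c * u = u * c → c * c = 1)
    {y : Y} (hy : y * y ≠ 1) {c : Y} (hc : c * y = y * c) : ∃ d : Y, d * y = y * d ∧ d * d = c := by
  obtain ⟨k, hk⟩ := odd_cent hI hy
  have h1 : c ^ (Nat.card (centralizer ({y} : Set Y))) = 1 := by
    have := pow_card_eq_one' (G := centralizer ({y} : Set Y)) (x := ⟨c, mem_centralizer_singleton_iff.2 hc⟩)
    exact congrArg Subtype.val this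
  refine ⟨c ^ (k + 1), ?_, ?_⟩
  · exact (Commute.pow_left hc (k + 1))
  · rw [← pow_add, show k + 1 + (k + 1) = (2 * k + 1) + 1 by ring, ← hk, pow_succ, h1, one_mul]

/-- the set of `n` with `n⁻¹ x n ∈ C(y)` is `C(y) ∪ C(y) t` -/
theorem nb (hI : ∀ u : Y, u ≠ 1 → u * u = 1 → ∀ c : Y, c * u = u * c → c * c = 1)
    {y t : Y} (hy : y * y ≠ 1) (ht : t ≠ 1) (ht2 : t * t = 1) (hty : t * y * t⁻¹ = y⁻¹)
    {x : Y} (hx : x * y = y * x) (hx1 : x ≠ 1) {n : Y} (hn : (n⁻¹ * x * n) * y = y * (n⁻¹ * x * n)) :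
    n * y = y * n ∨ (n * t) * y = y * (n * t) := by
  have ht' : t⁻¹ = t := inv_eq_of_mul_eq_one_left ht2
  obtain ⟨x', hx'⟩ : ∃ x', x' = n⁻¹ * x * n := ⟨_, rfl⟩
  rw [← hx'] at hn
  have hx0 : x = n * x' * n⁻¹ := by rw [hx']; group
  have hx'1 : x' ≠ 1 := by
    intro h; rw [h] at hx0; apply hx1; rw [hx0]; group
  have i1 := inverts hI hy ht ht2 hty hx
  have i2 := inverts hI hy ht ht2 hty hn
  have hs : (n * t * n⁻¹) * x * (n * t * n⁻¹)⁻¹ = x⁻¹ := by
    calc (n * t * n⁻¹) * x * (n * t * n⁻¹)⁻¹ = (n * t * n⁻¹) * (n * x' * n⁻¹) * (n * t * n⁻¹)⁻¹ := by rw [← hx0]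
      _ = n * (t * x' * t⁻¹) * n⁻¹ := by group
      _ = n * x'⁻¹ * n⁻¹ := by rw [i2]
      _ = (n * x' * n⁻¹)⁻¹ := by group
      _ = x⁻¹ := by rw [← hx0]
  have hc : (n * t * n⁻¹ * t) * x = x * (n * t * n⁻¹ * t) := by
    have : (n * t * n⁻¹ * t) * x * (n * t * n⁻¹ * t)⁻¹ = x := by
      calc (n * t * n⁻¹ * t) * x * (n * t * n⁻¹ * t)⁻¹
          = (n * t * n⁻¹) * (t * x * t⁻¹) * (n * t * n⁻¹)⁻¹ := by group
        _ = (n * t * n⁻¹) * x⁻¹ * (n * t * n⁻¹)⁻¹ := by rw [i1]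
        _ = ((n * t * n⁻¹) * x * (n * t * n⁻¹)⁻¹)⁻¹ := by group
        _ = x := by rw [hs, inv_inv]
    rwa [mul_inv_eq_iff_eq_mul] at this
  rw [cent_eq hI hy ht ht2 hty hx hx1] at hc
  obtain ⟨d, hd, hdd⟩ := exists_sqrt hI hy hc
  have i3 : t * d⁻¹ * t⁻¹ = d := by
    have := inverts hI hy ht ht2 hty hd
    calc t * d⁻¹ * t⁻¹ = (t * d * t⁻¹)⁻¹ := by group
      _ = d := by rw [this, inv_inv]
  have hdt : d * t * d⁻¹ = n * t * n⁻¹ := by
    calc d * t * d⁻¹ = d * (t * d⁻¹ * t⁻¹) * t := by group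
      _ = d * d * t := by rw [i3]
      _ = n * t * n⁻¹ * (t * t) := by rw [hdd]; group
      _ = n * t * n⁻¹ := by rw [ht2, mul_one]
  obtain ⟨v, hv⟩ : ∃ v, v = d⁻¹ * n := ⟨_, rfl⟩
  have hnv : n = d * v := by rw [hv]; group
  have hvt : v * t = t * v := by
    have h1 : d⁻¹ * (d * t * d⁻¹) * n = d⁻¹ * (n * t * n⁻¹) * n := by rw [hdt]
    have h2 : d⁻¹ * (d * t * d⁻¹) * n = t * (d⁻¹ * n) := by group
    have h3 : d⁻¹ * (n * t * n⁻¹) * n = (d⁻¹ * n) * t := by group
    rw [h2, h3] at h1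
    rw [hv]; exact h1.symm
  have hv2 := hI t ht ht2 v hvt
  have hv' : v⁻¹ = v := inv_eq_of_mul_eq_one_left hv2
  have hxd : d⁻¹ * x * d = x := by
    have := comm_of hI hy ht ht2 hty hx hd
    rw [mul_assoc, this, inv_mul_cancel_left]
  have hv3 : v⁻¹ * x * v = x' := by
    rw [hx', hnv]
    calc v⁻¹ * x * v = v⁻¹ * (d⁻¹ * x * d) * v := by rw [hxd]
      _ = (d * v)⁻¹ * x * (d * v) := by group
  have hv4 : v * x' * v⁻¹ = x := by rw [← hv3]; group
  have hv5 : v * x * v⁻¹ = x' := by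
    have := hv3
    rw [hv'] at this
    rw [hv']; exact this
  by_cases hv1 : v = 1
  · left
    rw [hnv, hv1, mul_one]; exact hd
  · right
    have hxx : x * x' = x' * x := comm_of hI hy ht ht2 hty hx hn
    have h6 : (x * x') * v = v * (x * x') := by
      have : v * (x * x') * v⁻¹ = x * x' := by
        calc v * (x * x') * v⁻¹ = (v * x * v⁻¹) * (v * x' * v⁻¹) := by group
          _ = x' * x := by rw [hv4, hv5]
          _ = x * x' := hxx.symm
      rw [mul_inv_eq_iff_eq_mul] at this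
      exact this.symm
    have h7 := hI v hv1 hv2 (x * x') h6
    have h8 : (x * x') * y = y * (x * x') := by rw [mul_assoc, hn, ← mul_assoc, hx, mul_assoc]
    have h9 := no_inv hI hy h8 h7
    have h10 : x' = x⁻¹ := (inv_eq_of_mul_eq_one_right h9).symm
    rw [h10] at hv5
    have h11 : (v * t) * x = x * (v * t) := by
      have : (v * t) * x * (v * t)⁻¹ = x := by
        calc (v * t) * x * (v * t)⁻¹ = v * (t * x * t⁻¹) * v⁻¹ := by group
          _ = v * x⁻¹ * v⁻¹ := by rw [i1]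
          _ = (v * x * v⁻¹)⁻¹ := by group
          _ = x := by rw [hv5, inv_inv]
      rwa [mul_inv_eq_iff_eq_mul] at this
    rw [cent_eq hI hy ht ht2 hty hx hx1] at h11
    have h12 : (v * t) * (v * t) = 1 := by
      calc (v * t) * (v * t) = v * (t * v) * t := by group
        _ = v * (v * t) * t := by rw [hvt]
        _ = (v * v) * (t * t) := by group
        _ = 1 := by rw [hv2, ht2, one_mul]
    have h13 := no_inv hI hy h11 h12
    have h14 : n * t = d := by rw [hnv, mul_assoc, h13, mul_one]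
    rw [h14]; exact hd

theorem nb_conv (hI : ∀ u : Y, u ≠ 1 → u * u = 1 → ∀ c : Y, c * u = u * c → c * c = 1)
    {y t : Y} (hy : y * y ≠ 1) (ht : t ≠ 1) (ht2 : t * t = 1) (hty : t * y * t⁻¹ = y⁻¹)
    {x : Y} (hx : x * y = y * x) {n : Y} (hn : n * y = y * n ∨ (n * t) * y = y * (n * t)) :
    (n⁻¹ * x * n) * y = y * (n⁻¹ * x * n) := by
  rcases hn with hn | hn
  · have := comm_of hI hy ht ht2 hty hx hn
    rw [mul_assoc n⁻¹ x n, this, inv_mul_cancel_left]
    exact hx
  · have h1 := comm_of hI hy ht ht2 hty hx hn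
    have h2 : n⁻¹ * x * n = t * ((n * t)⁻¹ * (x * (n * t))) * t⁻¹ := by group
    rw [h2, h1, inv_mul_cancel_left, inverts hI hy ht ht2 hty hx]
    exact (Commute.inv_left hx)

end Local

section Count

open Finset

variable [Fintype Y] [DecidableEq Y]

theorem card_cent (y : Y) :
    (univ.filter (fun c : Y => c * y = y * c)).card = Nat.card (centralizer ({y} : Set Y)) := by
  classical
  rw [Nat.card_eq_fintype_card, Fintype.card_subtype]
  congr 1
  ext c
  simp [mem_centralizer_singleton_iff]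

/-- involutions inverting `y` -/
theorem card_inverting (hI : ∀ u : Y, u ≠ 1 → u * u = 1 → ∀ c : Y, c * u = u * c → c * c = 1)
    {y t : Y} (hy : y * y ≠ 1) (ht : t ≠ 1) (ht2 : t * t = 1) (hty : t * y * t⁻¹ = y⁻¹) :
    (univ.filter (fun u : Y => (u ≠ 1 ∧ u * u = 1) ∧ u * y * u⁻¹ = y⁻¹)).card
      = Nat.card (centralizer ({y} : Set Y)) := by
  rw [← card_cent]
  symm
  apply Finset.card_nbij' (fun c => c * t) (fun u => u * t⁻¹)
  · intro c hc
    simp only [coe_filter, mem_univ, true_and, Set.mem_ofPred_eq] at hc ⊢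
    have h1 := inverts hI hy ht ht2 hty hc
    refine ⟨⟨?_, ?_⟩, ?_⟩
    · intro h
      have h2 : t * y = y * t := by
        have : t = c⁻¹ := eq_inv_of_mul_eq_one_right h
        rw [this]
        exact (Commute.inv_left hc)
      apply hy
      have h3 : t * y * t⁻¹ = y := by rw [h2, mul_inv_cancel_right]
      rw [hty] at h3
      nth_rewrite 1 [← h3]
      rw [inv_mul_cancel]
    · calc c * t * (c * t) = c * (t * c * t⁻¹) * (t * t) := by group
        _ = 1 := by rw [h1, ht2]; group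
    · calc c * t * y * (c * t)⁻¹ = c * (t * y * t⁻¹) * c⁻¹ := by group
        _ = c * y⁻¹ * c⁻¹ := by rw [hty]
        _ = y⁻¹ := by
          have : c * y⁻¹ = y⁻¹ * c := (Commute.inv_right hc)
          rw [this, mul_inv_cancel_right]
  · intro u hu
    simp only [coe_filter, mem_univ, true_and, Set.mem_ofPred_eq] at hu ⊢
    obtain ⟨⟨hu1, hu2⟩, hu3⟩ := hu
    have h1 : t⁻¹ * y * t = y⁻¹ := by
      have ht' : t⁻¹ = t := inv_eq_of_mul_eq_one_left ht2
      have := hty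
      rw [ht'] at this
      rw [ht']; exact this
    have h2 : (u * t⁻¹) * y * (u * t⁻¹)⁻¹ = y := by
      calc (u * t⁻¹) * y * (u * t⁻¹)⁻¹ = u * (t⁻¹ * y * t) * u⁻¹ := by group
        _ = u * y⁻¹ * u⁻¹ := by rw [h1]
        _ = (u * y * u⁻¹)⁻¹ := by group
        _ = y := by rw [hu3, inv_inv]
    rwa [mul_inv_eq_iff_eq_mul] at h2
  · intro c _
    simp
  · intro u _
    simp

/-- elements `y`, `y * y ≠ 1`, inverted by the involution `t` -/
theorem card_inverted (hI : ∀ u : Y, u ≠ 1 → u * u = 1 → ∀ c : Y, c * u = u * c → c * c = 1)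
    (hF : ∀ u : Y, u ≠ 1 → u * u = 1 → Nat.card (centralizer ({u} : Set Y)) = 4)
    {t : Y} (ht : t ≠ 1) (ht2 : t * t = 1) :
    (univ.filter (fun y : Y => y * y ≠ 1 ∧ t * y * t⁻¹ = y⁻¹)).card + 3
      = (univ.filter (fun u : Y => u ≠ 1 ∧ u * u = 1)).card := by
  have h3 : (univ.filter (fun u : Y => (u ≠ 1 ∧ u * u = 1) ∧ u * t = t * u)).card = 3 := by
    have h4 := hF t ht ht2
    rw [← card_cent] at h4
    have h5 : (univ.filter (fun u : Y => (u ≠ 1 ∧ u * u = 1) ∧ u * t = t * u))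
        = (univ.filter (fun c : Y => c * t = t * c)).erase 1 := by
      ext u
      simp only [mem_filter, mem_univ, true_and, mem_erase]
      constructor
      · rintro ⟨⟨h1, _⟩, h2⟩; exact ⟨h1, h2⟩
      · rintro ⟨h1, h2⟩; exact ⟨⟨h1, hI t ht ht2 u h2⟩, h2⟩
    rw [h5, card_erase_of_mem (by simp), h4]
  have h6 : (univ.filter (fun y : Y => y * y ≠ 1 ∧ t * y * t⁻¹ = y⁻¹)).card
      = (univ.filter (fun u : Y => (u ≠ 1 ∧ u * u = 1) ∧ ¬ u * t = t * u)).card := by
    have ht' : t⁻¹ = t := inv_eq_of_mul_eq_one_left ht2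
    apply Finset.card_nbij' (fun y => t * y) (fun u => t * u)
    · intro y hy
      simp only [coe_filter, mem_univ, true_and, Set.mem_ofPred_eq] at hy ⊢
      obtain ⟨hy1, hy2⟩ := hy
      have e1 : (t * y) * (t * y) = 1 := by
        calc (t * y) * (t * y) = (t * y * t⁻¹) * (t * t) * y := by group
          _ = 1 := by rw [hy2, ht2]; group
      refine ⟨⟨?_, e1⟩, ?_⟩
      · intro h
        apply hy1
        have : y = t⁻¹ := eq_inv_of_mul_eq_one_right h
        rw [this, ht', ht2]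
      · intro h
        apply hy1
        have h7 : y * t = t * y := by
          have := congrArg (fun z => t⁻¹ * z) h
          simp only [mul_assoc, inv_mul_cancel_left] at this
          exact this
        have h8 : t * y * t⁻¹ = y := by rw [← h7, mul_inv_cancel_right]
        rw [hy2] at h8
        nth_rewrite 1 [← h8]
        rw [inv_mul_cancel]
    · intro u hu
      simp only [coe_filter, mem_univ, true_and, Set.mem_ofPred_eq] at hu ⊢
      obtain ⟨⟨hu1, hu2⟩, hu3⟩ := hu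
      have hu' : u⁻¹ = u := inv_eq_of_mul_eq_one_left hu2
      constructor
      · intro h
        apply hu3
        have h1 : (t * u)⁻¹ = t * u := inv_eq_of_mul_eq_one_left h
        rw [mul_inv_rev, hu', ht'] at h1
        exact h1
      · calc t * (t * u) * t⁻¹ = (t * t) * u * t⁻¹ := by group
          _ = u⁻¹ * t⁻¹ := by rw [ht2, one_mul, hu']
          _ = (t * u)⁻¹ := by group
    · intro y _
      show t * (t * y) = y
      rw [← mul_assoc, ht2, one_mul]
    · intro y _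
      show t * (t * y) = y
      rw [← mul_assoc, ht2, one_mul]
  rw [h6, ← h3]
  have h9 := Finset.card_filter_add_card_filter_not (s := univ.filter (fun u : Y => u ≠ 1 ∧ u * u = 1))
    (fun u => u * t = t * u)
  rw [filter_filter, filter_filter] at h9
  rw [add_comm]
  exact h9

/-- `g (b - 1) = |U| (2 b)` -/
theorem card_U (hI : ∀ u : Y, u ≠ 1 → u * u = 1 → ∀ c : Y, c * u = u * c → c * c = 1)
    {y t : Y} (hy : y * y ≠ 1) (ht : t ≠ 1) (ht2 : t * t = 1) (hty : t * y * t⁻¹ = y⁻¹) :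
    Fintype.card Y * (Nat.card (centralizer ({y} : Set Y)) - 1) =
      (univ.filter (fun z : Y => z ≠ 1 ∧ ∃ x : Y, (x⁻¹ * z * x) * y = y * (x⁻¹ * z * x))).card
        * (2 * Nat.card (centralizer ({y} : Set Y))) := by
  have := Finset.card_mul_eq_card_mul (s := (univ : Finset Y))
    (t := univ.filter (fun z : Y => z ≠ 1 ∧ ∃ x : Y, (x⁻¹ * z * x) * y = y * (x⁻¹ * z * x)))
    (m := Nat.card (centralizer ({y} : Set Y)) - 1) (n := 2 * Nat.card (centralizer ({y} : Set Y)))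
    (fun x z => (x⁻¹ * z * x) * y = y * (x⁻¹ * z * x)) ?_ ?_
  · rwa [Finset.card_univ] at this
  · intro x _
    have h1 : ((univ.filter (fun c : Y => c * y = y * c)).erase 1).card = Nat.card (centralizer ({y} : Set Y)) - 1 := by
      rw [card_erase_of_mem (by simp), card_cent]
    rw [← h1]
    unfold bipartiteAbove
    rw [filter_filter]
    apply Finset.card_nbij' (fun z => x⁻¹ * z * x) (fun c => x * c * x⁻¹)
    · intro z hz
      simp only [coe_filter, mem_univ, true_and, Set.mem_ofPred_eq] at hz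
      simp only [coe_erase, coe_filter, mem_univ, true_and, Set.mem_sdiff, Set.mem_ofPred_eq, Set.mem_singleton_iff]
      refine ⟨hz.2, ?_⟩
      intro h
      apply hz.1.1
      have : z = x * (x⁻¹ * z * x) * x⁻¹ := by group
      rw [this, h]; group
    · intro c hc
      simp only [coe_erase, coe_filter, mem_univ, true_and, Set.mem_sdiff, Set.mem_ofPred_eq, Set.mem_singleton_iff] at hc
      simp only [coe_filter, mem_univ, true_and, Set.mem_ofPred_eq]
      have e1 : x⁻¹ * (x * c * x⁻¹) * x = c := by group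
      refine ⟨⟨?_, ⟨x, ?_⟩⟩, ?_⟩
      · intro h
        apply hc.2
        rw [← e1, h]; group
      · rw [e1]; exact hc.1
      · rw [e1]; exact hc.1
    · intro z _
      show x * (x⁻¹ * z * x) * x⁻¹ = z
      group
    · intro c _
      show x⁻¹ * (x * c * x⁻¹) * x = c
      group
  · intro z hz
    simp only [mem_filter, mem_univ, true_and] at hz
    obtain ⟨hz1, x0, hx0⟩ := hz
    unfold bipartiteBelow
    obtain ⟨w, hw⟩ : ∃ w, w = x0⁻¹ * z * x0 := ⟨_, rfl⟩
    rw [← hw] at hx0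
    have hw1 : w ≠ 1 := by
      intro h
      apply hz1
      have : z = x0 * (x0⁻¹ * z * x0) * x0⁻¹ := by group
      rw [this, ← hw, h]; group
    have hdisj : Disjoint (univ.filter (fun n : Y => n * y = y * n))
        (univ.filter (fun n : Y => (n * t) * y = y * (n * t))) := by
      rw [Finset.disjoint_left]
      intro n h1 h2
      simp only [mem_filter, mem_univ, true_and] at h1 h2
      have h3 : t * y = y * t := by
        have e1 : n⁻¹ * y = y * n⁻¹ := Commute.inv_left h1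
        calc t * y = n⁻¹ * ((n * t) * y) := by group
          _ = n⁻¹ * (y * (n * t)) := by rw [h2]
          _ = (n⁻¹ * y) * (n * t) := by group
          _ = y * t := by rw [e1]; group
      apply hy
      have h4 : t * y * t⁻¹ = y := by rw [h3, mul_inv_cancel_right]
      rw [hty] at h4
      nth_rewrite 1 [← h4]
      rw [inv_mul_cancel]
    have h2 : (univ.filter (fun n : Y => (n * t) * y = y * (n * t))).card = Nat.card (centralizer ({y} : Set Y)) := by
      rw [← card_cent]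
      apply Finset.card_nbij' (fun n => n * t) (fun n => n * t⁻¹)
      · intro n hn
        simp only [coe_filter, mem_univ, true_and, Set.mem_ofPred_eq] at hn ⊢
        exact hn
      · intro n hn
        simp only [coe_filter, mem_univ, true_and, Set.mem_ofPred_eq] at hn ⊢
        rw [inv_mul_cancel_right]; exact hn
      · intro n _; simp
      · intro n _; simp
    have h3 : (univ.filter (fun x : Y => (x⁻¹ * z * x) * y = y * (x⁻¹ * z * x))).card
        = ((univ.filter (fun n : Y => n * y = y * n)) ∪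
          (univ.filter (fun n : Y => (n * t) * y = y * (n * t)))).card := by
      apply Finset.card_nbij' (fun x => x0⁻¹ * x) (fun n => x0 * n)
      · intro x hx
        simp only [coe_filter, mem_univ, true_and, Set.mem_ofPred_eq] at hx
        simp only [coe_union, coe_filter, mem_univ, true_and, Set.mem_union, Set.mem_ofPred_eq]
        apply nb hI hy ht ht2 hty hx0 hw1
        have : (x0⁻¹ * x)⁻¹ * w * (x0⁻¹ * x) = x⁻¹ * z * x := by rw [hw]; group
        rw [this]; exact hx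
      · intro n hn
        simp only [coe_union, coe_filter, mem_univ, true_and, Set.mem_union, Set.mem_ofPred_eq] at hn
        simp only [coe_filter, mem_univ, true_and, Set.mem_ofPred_eq]
        have h4 := nb_conv hI hy ht ht2 hty hx0 hn
        have : (x0 * n)⁻¹ * z * (x0 * n) = n⁻¹ * w * n := by rw [hw]; group
        rw [this]; exact h4
      · intro x _; simp
      · intro x _; simp
    rw [h3, Finset.card_union_of_disjoint hdisj, card_cent, h2, two_mul]

theorem card_class (hF : ∀ u : Y, u ≠ 1 → u * u = 1 → Nat.card (centralizer ({u} : Set Y)) = 4)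
    (hcl : ∀ u w : Y, u ≠ 1 → u * u = 1 → w ≠ 1 → w * w = 1 → ∃ g : Y, g * u * g⁻¹ = w)
    {t : Y} (ht : t ≠ 1) (ht2 : t * t = 1) :
    Fintype.card Y = (univ.filter (fun u : Y => u ≠ 1 ∧ u * u = 1)).card * 4 := by
  have := Finset.card_mul_eq_card_mul (s := (univ : Finset Y))
    (t := univ.filter (fun u : Y => u ≠ 1 ∧ u * u = 1))
    (m := 1) (n := 4) (fun x u => x * t * x⁻¹ = u) ?_ ?_
  · rw [Finset.card_univ, mul_one] at this
    exact this
  · intro x _
    rw [Finset.card_eq_one]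
    refine ⟨x * t * x⁻¹, ?_⟩
    ext u
    unfold bipartiteAbove
    simp only [mem_filter, mem_univ, true_and, mem_singleton]
    constructor
    · rintro ⟨_, h⟩; exact h.symm
    · rintro rfl
      refine ⟨⟨?_, ?_⟩, rfl⟩
      · intro h
        apply ht
        have : t = x⁻¹ * (x * t * x⁻¹) * x := by group
        rw [this, h]; group
      · calc x * t * x⁻¹ * (x * t * x⁻¹) = x * (t * t) * x⁻¹ := by group
          _ = 1 := by rw [ht2]; group
  · intro u hu
    simp only [mem_filter, mem_univ, true_and] at hu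
    obtain ⟨g, hg⟩ := hcl t u ht ht2 hu.1 hu.2
    unfold bipartiteBelow
    rw [← hF t ht ht2, ← card_cent]
    apply Finset.card_nbij' (fun x => g⁻¹ * x) (fun n => g * n)
    · intro x hx
      simp only [coe_filter, mem_univ, true_and, Set.mem_ofPred_eq] at hx ⊢
      have : g⁻¹ * (x * t * x⁻¹) * x = g⁻¹ * (g * t * g⁻¹) * x := by rw [hx, hg]
      have e1 : g⁻¹ * (x * t * x⁻¹) * x = g⁻¹ * x * t := by group
      have e2 : g⁻¹ * (g * t * g⁻¹) * x = t * (g⁻¹ * x) := by group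
      rw [e1, e2] at this
      exact this
    · intro n hn
      simp only [coe_filter, mem_univ, true_and, Set.mem_ofPred_eq] at hn ⊢
      rw [← hg]
      calc g * n * t * (g * n)⁻¹ = g * (n * t) * n⁻¹ * g⁻¹ := by group
        _ = g * (t * n) * n⁻¹ * g⁻¹ := by rw [hn]
        _ = g * t * g⁻¹ := by group
    · intro x _; simp
    · intro x _; simp

end Count

theorem arith1 {g a c m n : ℕ} (hg : 0 < g) (ha : 5 ≤ a) (hc : 5 ≤ c) (h1 : g * (a - 1) = m * (2 * a))
    (h2 : g * (c - 1) = n * (2 * c)) (h3 : 4 * (m + n) ≤ 3 * g) : False := by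
  obtain ⟨a, rfl⟩ : ∃ k, a = k + 5 := ⟨a - 5, by omega⟩
  obtain ⟨c, rfl⟩ : ∃ k, c = k + 5 := ⟨c - 5, by omega⟩
  have e1 : a + 5 - 1 = a + 4 := by omega
  have e2 : c + 5 - 1 = c + 4 := by omega
  rw [e1] at h1
  rw [e2] at h2
  have h4 : 2 * g ≤ 5 * m := by
    by_contra h
    push Not at h
    have : 5 * (g * (a + 4)) < 2 * g * (a + 5) * 2 := by
      rw [h1]
      nlinarith
    nlinarith
  have h5 : 2 * g ≤ 5 * n := by
    by_contra h
    push Not at h
    have : 5 * (g * (c + 4)) < 2 * g * (c + 5) * 2 := by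
      rw [h2]
      nlinarith
    nlinarith
  omega

theorem main (hI : ∀ u : Y, u ≠ 1 → u * u = 1 → ∀ c : Y, c * u = u * c → c * c = 1)
    (hF : ∀ u : Y, u ≠ 1 → u * u = 1 → Nat.card (centralizer ({u} : Set Y)) = 4)
    (hcl : ∀ u w : Y, u ≠ 1 → u * u = 1 → w ≠ 1 → w * w = 1 → ∃ g : Y, g * u * g⁻¹ = w)
    (h3 : ∀ u y : Y, u ≠ 1 → u * u = 1 → y ^ 3 = 1 → u * y * u⁻¹ = y⁻¹ → y = 1)
    {t : Y} (ht : t ≠ 1) (ht2 : t * t = 1) : Nat.card Y = 12 := by
  classical
  have : Fintype Y := Fintype.ofFinite Y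
  rw [Nat.card_eq_fintype_card]
  obtain ⟨I, hIdef⟩ : ∃ I : Finset Y, I = Finset.univ.filter (fun u : Y => u ≠ 1 ∧ u * u = 1) := ⟨_, rfl⟩
  obtain ⟨J, hJdef⟩ : ∃ J : Finset Y, J = Finset.univ.filter
    (fun y : Y => y * y ≠ 1 ∧ ∃ u : Y, (u ≠ 1 ∧ u * u = 1) ∧ u * y * u⁻¹ = y⁻¹) := ⟨_, rfl⟩
  have hmJ : ∀ y, y ∈ J ↔ (y * y ≠ 1 ∧ ∃ u : Y, (u ≠ 1 ∧ u * u = 1) ∧ u * y * u⁻¹ = y⁻¹) := by
    intro y; rw [hJdef]; simp
  have hmI : ∀ u, u ∈ I ↔ (u ≠ 1 ∧ u * u = 1) := by
    intro y; rw [hIdef]; simp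
  have E1 := card_class hF hcl ht ht2
  rw [← hIdef] at E1
  have hipos : 0 < I.card := Finset.card_pos.2 ⟨t, (hmI t).2 ⟨ht, ht2⟩⟩
  -- each involution inverts `|I| - 3` elements of `J`
  have E2 : ∀ u ∈ I, (J.filter (fun y => u * y * u⁻¹ = y⁻¹)).card = I.card - 3 := by
    intro u hu
    have h := card_inverted hI hF ((hmI u).1 hu).1 ((hmI u).1 hu).2
    rw [← hIdef] at h
    have h' : J.filter (fun y => u * y * u⁻¹ = y⁻¹)
        = Finset.univ.filter (fun y : Y => y * y ≠ 1 ∧ u * y * u⁻¹ = y⁻¹) := by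
      ext y
      simp only [Finset.mem_filter, hmJ, Finset.mem_univ, true_and]
      constructor
      · rintro ⟨⟨h1, _⟩, h2⟩; exact ⟨h1, h2⟩
      · rintro ⟨h1, h2⟩; exact ⟨⟨h1, u, (hmI u).1 hu, h2⟩, h2⟩
    rw [h']; omega
  rcases J.eq_empty_or_nonempty with hJ | ⟨y, hy⟩
  · have := E2 t ((hmI t).2 ⟨ht, ht2⟩)
    rw [hJ, Finset.filter_empty, Finset.card_empty] at this
    have h4 := card_inverted hI hF ht ht2
    rw [← hIdef] at h4
    omega
  exfalso
  have h5 : ∀ y ∈ J, 5 ≤ Nat.card (centralizer ({y} : Set Y)) := by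
    intro y hy
    obtain ⟨hy1, u, ⟨hu1, hu2⟩, hu3⟩ := (hmJ y).1 hy
    have hodd := odd_cent hI hy1
    have hne1 : Nat.card (centralizer ({y} : Set Y)) ≠ 1 := by
      intro h
      have h6 := (Nat.card_eq_one_iff_unique.1 h).1
      have := @Subsingleton.elim _ h6 ⟨y, mem_centralizer_singleton_iff.2 rfl⟩ 1
      have h7 : y = 1 := congrArg Subtype.val this
      apply hy1; rw [h7, one_mul]
    have hne3 : Nat.card (centralizer ({y} : Set Y)) ≠ 3 := by
      intro h
      have h6 : y ^ 3 = 1 := by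
        have := pow_card_eq_one' (G := centralizer ({y} : Set Y)) (x := ⟨y, mem_centralizer_singleton_iff.2 rfl⟩)
        rw [h] at this
        exact congrArg Subtype.val this
      have h7 := h3 u y hu1 hu2 h6 hu3
      apply hy1; rw [h7, one_mul]
    obtain ⟨k, hk⟩ := hodd
    omega
  have hle : 4 * J.card ≤ 3 * Fintype.card Y := by
    have hd : Disjoint J I := by
      rw [Finset.disjoint_left]
      intro y h1 h2
      exact ((hmJ y).1 h1).1 ((hmI y).1 h2).2
    have := Finset.card_le_univ (J ∪ I)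
    rw [Finset.card_union_of_disjoint hd] at this
    omega
  obtain ⟨U, hUdef⟩ : ∃ U : Y → Finset Y, U = fun y => Finset.univ.filter
    (fun z : Y => z ≠ 1 ∧ ∃ x : Y, (x⁻¹ * z * x) * y = y * (x⁻¹ * z * x)) := ⟨_, rfl⟩
  have hmU : ∀ y z, z ∈ U y ↔ (z ≠ 1 ∧ ∃ x : Y, (x⁻¹ * z * x) * y = y * (x⁻¹ * z * x)) := by
    intro y z; rw [hUdef]; simp
  have E3 : ∀ y ∈ J, Fintype.card Y * (Nat.card (centralizer ({y} : Set Y)) - 1)
      = (U y).card * (2 * Nat.card (centralizer ({y} : Set Y))) := by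
    intro y hy
    obtain ⟨hy1, u, ⟨hu1, hu2⟩, hu3⟩ := (hmJ y).1 hy
    have := card_U hI hy1 hu1 hu2 hu3
    rw [this, hUdef]
  have hUJ : ∀ y ∈ J, U y ⊆ J := by
    intro y hy z hz
    obtain ⟨hy1, u, ⟨hu1, hu2⟩, hu3⟩ := (hmJ y).1 hy
    obtain ⟨hz1, x, hx⟩ := (hmU y z).1 hz
    have h6 := inverts hI hy1 hu1 hu2 hu3 hx
    have hx1 : (x⁻¹ * z * x) ≠ 1 := by
      intro h
      apply hz1
      have : z = x * (x⁻¹ * z * x) * x⁻¹ := by group
      rw [this, h]; group
    refine (hmJ z).2 ⟨?_, x * u * x⁻¹, ⟨?_, ?_⟩, ?_⟩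
    · intro h
      apply hx1
      apply no_inv hI hy1 hx
      calc (x⁻¹ * z * x) * (x⁻¹ * z * x) = x⁻¹ * (z * z) * x := by group
        _ = 1 := by rw [h]; group
    · intro h
      apply hu1
      have : u = x⁻¹ * (x * u * x⁻¹) * x := by group
      rw [this, h]; group
    · calc x * u * x⁻¹ * (x * u * x⁻¹) = x * (u * u) * x⁻¹ := by group
        _ = 1 := by rw [hu2]; group
    · calc (x * u * x⁻¹) * z * (x * u * x⁻¹)⁻¹ = x * (u * (x⁻¹ * z * x) * u⁻¹) * x⁻¹ := by group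
        _ = x * (x⁻¹ * z * x)⁻¹ * x⁻¹ := by rw [h6]
        _ = z⁻¹ := by group
  -- all centralizers are conjugate
  have hall : J ⊆ U y := by
    intro y' hy'
    by_contra hne
    have hd : Disjoint (U y) (U y') := by
      rw [Finset.disjoint_left]
      intro z h1 h2
      apply hne
      obtain ⟨hy1, u, ⟨hu1, hu2⟩, hu3⟩ := (hmJ y).1 hy
      obtain ⟨hy1', u', ⟨hu1', hu2'⟩, hu3'⟩ := (hmJ y').1 hy'
      obtain ⟨hz1, x, hx⟩ := (hmU y z).1 h1
      obtain ⟨_, x', hx'⟩ := (hmU y' z).1 h2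
      have hx1 : (x⁻¹ * z * x) ≠ 1 := by
        intro h
        apply hz1
        have : z = x * (x⁻¹ * z * x) * x⁻¹ := by group
        rw [this, h]; group
      have hy'1 : y' ≠ 1 := by
        rintro rfl; exact hy1' (one_mul 1)
      refine (hmU y y').2 ⟨hy'1, x'⁻¹⁻¹⁻¹ * x, ?_⟩
      -- `y'` commutes with `x'⁻¹ z x'`
      rw [← cent_eq hI hy1 hu1 hu2 hu3 hx hx1]
      have e1 : ((x'⁻¹⁻¹⁻¹ * x)⁻¹ * y' * (x'⁻¹⁻¹⁻¹ * x)) = x⁻¹ * (x' * y' * x'⁻¹) * x := by group
      rw [e1]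
      have e2 : (x' * y' * x'⁻¹) * z = z * (x' * y' * x'⁻¹) := by
        calc (x' * y' * x'⁻¹) * z = x' * (y' * (x'⁻¹ * z * x')) * x'⁻¹ := by group
          _ = x' * ((x'⁻¹ * z * x') * y') * x'⁻¹ := by rw [hx']
          _ = z * (x' * y' * x'⁻¹) := by group
      calc x⁻¹ * (x' * y' * x'⁻¹) * x * (x⁻¹ * z * x) = x⁻¹ * ((x' * y' * x'⁻¹) * z) * x := by group
        _ = x⁻¹ * (z * (x' * y' * x'⁻¹)) * x := by rw [e2]
        _ = x⁻¹ * z * x * (x⁻¹ * (x' * y' * x'⁻¹) * x) := by group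
    have h6 : (U y).card + (U y').card ≤ J.card := by
      rw [← Finset.card_union_of_disjoint hd]
      exact Finset.card_le_card (Finset.union_subset (hUJ y hy) (hUJ y' hy'))
    exact arith1 (Fintype.card_pos_iff.2 ⟨1⟩) (h5 y hy) (h5 y' hy') (E3 y hy) (E3 y' hy') (by omega)
  have hUeq : U y = J := Finset.Subset.antisymm (hUJ y hy) hall
  have E4 := E3 y hy
  rw [hUeq] at E4
  obtain ⟨hy1, u, ⟨hu1, hu2⟩, hu3⟩ := (hmJ y).1 hy
  -- all centralizers have the same order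
  have hb : ∀ z ∈ J, Nat.card (centralizer ({z} : Set Y)) = Nat.card (centralizer ({y} : Set Y)) := by
    intro z hz
    obtain ⟨hz1, x, hx⟩ := (hmU y z).1 (hall hz)
    have hx1 : (x⁻¹ * z * x) ≠ 1 := by
      intro h
      apply hz1
      have : z = x * (x⁻¹ * z * x) * x⁻¹ := by group
      rw [this, h]; group
    rw [← card_cent, ← card_cent]
    apply Finset.card_nbij' (fun c => x⁻¹ * c * x) (fun c => x * c * x⁻¹)
    · intro c hc
      simp only [Finset.coe_filter, Finset.mem_univ, true_and, Set.mem_ofPred_eq] at hc ⊢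
      rw [← cent_eq hI hy1 hu1 hu2 hu3 hx hx1]
      calc x⁻¹ * c * x * (x⁻¹ * z * x) = x⁻¹ * (c * z) * x := by group
        _ = x⁻¹ * (z * c) * x := by rw [hc]
        _ = x⁻¹ * z * x * (x⁻¹ * c * x) := by group
    · intro c hc
      simp only [Finset.coe_filter, Finset.mem_univ, true_and, Set.mem_ofPred_eq] at hc ⊢
      rw [← cent_eq hI hy1 hu1 hu2 hu3 hx hx1] at hc
      calc x * c * x⁻¹ * z = x * (c * (x⁻¹ * z * x)) * x⁻¹ := by group
        _ = x * ((x⁻¹ * z * x) * c) * x⁻¹ := by rw [hc]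
        _ = z * (x * c * x⁻¹) := by group
    · intro c _
      show x * (x⁻¹ * c * x) * x⁻¹ = c
      group
    · intro c _
      show x⁻¹ * (x * c * x⁻¹) * x = c
      group
  have E5 : I.card * (I.card - 3) = J.card * Nat.card (centralizer ({y} : Set Y)) := by
    apply Finset.card_mul_eq_card_mul (fun u y => u * y * u⁻¹ = y⁻¹)
    · intro u hu
      exact E2 u hu
    · intro z hz
      obtain ⟨hz1, w, ⟨hw1, hw2⟩, hw3⟩ := (hmJ z).1 hz
      rw [← hb z hz, ← card_inverting hI hz1 hw1 hw2 hw3]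
      unfold Finset.bipartiteBelow
      rw [hIdef, Finset.filter_filter]
  have hdvd : Nat.card (centralizer ({y} : Set Y)) ∣ Fintype.card Y := by
    rw [← Nat.card_eq_fintype_card]
    exact Subgroup.card_subgroup_dvd_card _
  have hb5 := h5 y hy
  have hodd := odd_cent hI hy1
  obtain ⟨b, hbdef⟩ : ∃ b, b = Nat.card (centralizer ({y} : Set Y)) := ⟨_, rfl⟩
  rw [← hbdef] at E4 E5 hdvd hb5 hodd
  obtain ⟨i, hi⟩ : ∃ i, i = I.card := ⟨_, rfl⟩
  rw [← hi] at E5 E1 hipos
  rw [E1] at E4 hdvd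
  -- `2 i (i - 3) = 4 i (b - 1)`
  have E6 : i * (i - 3) = i * (2 * (b - 1)) := by
    have : 2 * (i * (i - 3)) = i * 4 * (b - 1) := by
      rw [E5, E4]; ring
    nlinarith
  have E7 : i - 3 = 2 * (b - 1) := Nat.eq_of_mul_eq_mul_left hipos E6
  have E8 : i * 4 = b * 8 + 4 := by omega
  rw [E8] at hdvd
  have h9 : b ∣ 4 := (Nat.dvd_add_right (dvd_mul_right b 8)).1 hdvd
  have h10 := Nat.le_of_dvd (by norm_num) h9
  omega

/-- **Lemma Q** (helper92's S2755) -/
theorem lemmaQ {Y : Type*} [Group Y] [Finite Y] (V : Subgroup Y) (hV : Nat.card V = 4) (hV2 : ∀ v ∈ V, v * v = 1)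
    (hC : ∀ v ∈ V, v ≠ 1 → ∀ g : Y, g * v = v * g → g ∈ V)
    (hinv : ∀ v ∈ V, v ≠ 1 → ∀ w ∈ V, w ≠ 1 → ∃ g : Y, g * v * g⁻¹ = w)
    (h3 : ∀ u y : Y, u ≠ 1 → u * u = 1 → y ^ 3 = 1 → u * y * u⁻¹ = y⁻¹ → y = 1) :
    Nat.card Y = 12 := by
  have hab : ∀ v ∈ V, ∀ w ∈ V, v * w = w * v := by
    intro v hv w hw
    have h1 := hV2 (v * w) (V.mul_mem hv hw)
    have h2 : (v * w)⁻¹ = v * w := inv_eq_of_mul_eq_one_left h1
    rw [mul_inv_rev, inv_eq_of_mul_eq_one_left (hV2 v hv), inv_eq_of_mul_eq_one_left (hV2 w hw)] at h2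
    exact h2.symm
  obtain ⟨t, htV, ht⟩ : ∃ t ∈ V, t ≠ 1 := by
    have : V ≠ ⊥ := by
      intro h; rw [h, Subgroup.card_bot] at hV; omega
    exact V.ne_bot_iff_exists_ne_one.1 this |>.elim (fun x hx => ⟨x, x.2, fun h => hx (Subtype.ext h)⟩)
  have ht2 := hV2 t htV
  have : Fact (Nat.Prime 2) := ⟨Nat.prime_two⟩
  have hVp : IsPGroup 2 V := IsPGroup.of_card (n := 2) (by rw [hV]; norm_num)
  obtain ⟨S, hS⟩ := hVp.exists_le_sylow
  have hSV : (S : Subgroup Y) ≤ V := by
    have hnt : Nontrivial (S : Subgroup Y) := ⟨⟨⟨t, hS htV⟩, 1, fun h => ht (congrArg Subtype.val h)⟩⟩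
    have hcn := S.isPGroup'.center_nontrivial
    obtain ⟨z, hz⟩ := exists_ne (1 : Subgroup.center (S : Subgroup Y))
    have hzc := fun s : (S : Subgroup Y) => (Subgroup.mem_center_iff.1 z.2) s
    have hz1 : ((z : (S : Subgroup Y)) : Y) ≠ 1 := by
      intro h
      apply hz
      apply Subtype.ext
      apply Subtype.ext
      exact h
    have hzV : ((z : (S : Subgroup Y)) : Y) ∈ V := by
      apply hC t htV ht
      have := congrArg Subtype.val (hzc ⟨t, hS htV⟩)
      exact this.symm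
    intro s hs
    apply hC _ hzV hz1
    exact congrArg Subtype.val (hzc ⟨s, hs⟩)
  have hSeq : (S : Subgroup Y) = V := le_antisymm hSV hS
  have hconj : ∀ u : Y, u ≠ 1 → u * u = 1 → ∃ g : Y, g⁻¹ * u * g ∈ V := by
    intro u _ hu2
    have hup : IsPGroup 2 (zpowers u) := by
      have h1 : orderOf u ∣ 2 := orderOf_dvd_of_pow_eq_one (by rw [sq, hu2])
      rw [IsPGroup.iff_card]
      rw [Nat.card_zpowers]
      rcases (Nat.dvd_prime Nat.prime_two).1 h1 with h | h
      · exact ⟨0, by rw [h]; norm_num⟩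
      · exact ⟨1, by rw [h]; norm_num⟩
    obtain ⟨S', hS'⟩ := hup.exists_le_sylow
    obtain ⟨g, hg⟩ := MulAction.exists_smul_eq Y S S'
    refine ⟨g, ?_⟩
    have h1 : u ∈ (S' : Subgroup Y) := hS' (mem_zpowers u)
    rw [← hg, Sylow.coe_subgroup_smul, Hall.mem_conj_smul, hSeq] at h1
    exact h1
  have hne : ∀ u g : Y, u ≠ 1 → g⁻¹ * u * g ≠ 1 := by
    intro u g hu h
    apply hu
    have : u = g * (g⁻¹ * u * g) * g⁻¹ := by group
    rw [this, h]; group
  have hcc : ∀ u g c : Y, c * u = u * c → (g⁻¹ * c * g) * (g⁻¹ * u * g) = (g⁻¹ * u * g) * (g⁻¹ * c * g) := by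
    intro u g c h
    calc (g⁻¹ * c * g) * (g⁻¹ * u * g) = g⁻¹ * (c * u) * g := by group
      _ = g⁻¹ * (u * c) * g := by rw [h]
      _ = (g⁻¹ * u * g) * (g⁻¹ * c * g) := by group
  have hI : ∀ u : Y, u ≠ 1 → u * u = 1 → ∀ c : Y, c * u = u * c → c * c = 1 := by
    intro u hu hu2 c hc
    obtain ⟨g, hg⟩ := hconj u hu hu2
    have h1 := hC _ hg (hne u g hu) _ (hcc u g c hc)
    have h2 := hV2 _ h1
    calc c * c = g * ((g⁻¹ * c * g) * (g⁻¹ * c * g)) * g⁻¹ := by group
      _ = 1 := by rw [h2]; group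
  have hF : ∀ u : Y, u ≠ 1 → u * u = 1 → Nat.card (centralizer ({u} : Set Y)) = 4 := by
    intro u hu hu2
    obtain ⟨g, hg⟩ := hconj u hu hu2
    have h1 : centralizer ({u} : Set Y) = MulAut.conj g • V := by
      ext c
      rw [mem_centralizer_singleton_iff, Hall.mem_conj_smul]
      constructor
      · intro hc
        exact hC _ hg (hne u g hu) _ (hcc u g c hc)
      · intro hc
        have h2 := hab _ hc _ hg
        have h3 := hcc (g⁻¹ * u * g) g⁻¹ (g⁻¹ * c * g) h2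
        have e1 : g⁻¹⁻¹ * (g⁻¹ * c * g) * g⁻¹ = c := by group
        have e2 : g⁻¹⁻¹ * (g⁻¹ * u * g) * g⁻¹ = u := by group
        rw [e1, e2] at h3
        exact h3
    rw [h1, Hall.card_conj_smul, hV]
  have hcl : ∀ u w : Y, u ≠ 1 → u * u = 1 → w ≠ 1 → w * w = 1 → ∃ g : Y, g * u * g⁻¹ = w := by
    intro u w hu hu2 hw hw2
    obtain ⟨g, hg⟩ := hconj u hu hu2
    obtain ⟨k, hk⟩ := hconj w hw hw2
    obtain ⟨x, hx⟩ := hinv _ hg (hne u g hu) _ hk (hne w k hw)
    refine ⟨k * x * g⁻¹, ?_⟩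
    calc k * x * g⁻¹ * u * (k * x * g⁻¹)⁻¹ = k * (x * (g⁻¹ * u * g) * x⁻¹) * k⁻¹ := by group
      _ = k * (k⁻¹ * w * k) * k⁻¹ := by rw [hx]
      _ = w := by group
  exact main hI hF hcl h3 ht ht2

end Cfsg.Agent.H35.RtQ
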