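import Mathlib

/-!
# Gauss sums of quadratic maps on 2-groups (helper35)
-/

set_option autoImplicit false
set_option linter.style.haveILetI false

namespace Cfsg.Agent.H35.ThreeInv

open Finset

/-- sign of an element of `ZMod 2` -/
def ep (a : ZMod 2) : ℤ := if a = 0 then 1 else -1

theorem ep_add : ∀ a b : ZMod 2, ep (a + b) = ep a * ep b := by decide
theorem ep_zero : ep 0 = 1 := by decide
theorem ep_sq : ∀ a : ZMod 2, ep a * ep a = 1 := by decide
theorem ep_eq_one : ∀ a : ZMod 2, ep a = 1 → a = 0 := by decide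

variable {D : Type*} [Group D] [Fintype D]

theorem sum_hom (f : D → ZMod 2) (hf : ∀ x y, f (x * y) = f x + f y) :
    (∑ x, ep (f x) = 0) ∨ ((∀ x, f x = 0) ∧ ∑ x, ep (f x) = Fintype.card D) := by
  classical
  have h1 : f 1 = 0 := by
    have := hf 1 1
    rw [mul_one] at this
    have h2 : f 1 + 0 = f 1 + f 1 := by rw [add_zero]; exact this
    exact (add_left_cancel h2).symm
  let F : D →* ℤ :=
    { toFun := fun x => ep (f x)
      map_one' := by show ep (f 1) = 1; rw [h1, ep_zero]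
      map_mul' := fun x y => by show ep (f (x * y)) = ep (f x) * ep (f y); rw [hf, ep_add] }
  by_cases hF : F = 1
  · right
    have h2 : ∀ x, ep (f x) = 1 := fun x => DFunLike.congr_fun hF x
    refine ⟨fun x => ep_eq_one _ (h2 x), ?_⟩
    rw [Finset.sum_congr rfl (fun x _ => h2 x)]
    simp
  · left
    exact sum_hom_units_eq_zero F hF

theorem gauss (q : D → ZMod 2) (k : D → D → ZMod 2) (hq : ∀ x u, q (x * u) = q x + q u + k x u)
    (hk1 : ∀ x y u, k (x * y) u = k x u + k y u) (hk2 : ∀ x u v, k x (u * v) = k x u + k x v) :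
    (∑ x, ep (q x) = 0) ∨ ∃ R : Subgroup D, (∀ z, (∀ x, k x z = 0) → z ∈ R) ∧
      (∑ x, ep (q x)) ^ 2 = Nat.card D * Nat.card R := by
  classical
  have k0 : ∀ x, k x 1 = 0 := by
    intro x
    have := hk2 x 1 1
    rw [mul_one] at this
    have h2 : k x 1 + 0 = k x 1 + k x 1 := by rw [add_zero]; exact this
    exact (add_left_cancel h2).symm
  let R : Subgroup D :=
    { carrier := {u | ∀ x, k x u = 0}
      one_mem' := k0
      mul_mem' := by
        intro a b ha hb x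
        rw [hk2, ha x, hb x, add_zero]
      inv_mem' := by
        intro a ha x
        have := hk2 x a a⁻¹
        rw [mul_inv_cancel, k0, ha x, zero_add] at this
        exact this.symm }
  have hR : ∀ u, u ∈ R ↔ ∀ x, k x u = 0 := fun u => Iff.rfl
  have key : (∑ x, ep (q x)) ^ 2 = Fintype.card D * ∑ u : R, ep (q u) := by
    rw [pow_two, Finset.sum_mul_sum]
    have h1 : ∀ x : D, ∑ y, ep (q x) * ep (q y) = ∑ u, ep (q u) * ep (k x u) := by
      intro x
      rw [← Equiv.sum_comp (Equiv.mulLeft x)]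
      apply Finset.sum_congr rfl
      intro u _
      rw [Equiv.coe_mulLeft, hq, ep_add, ep_add]
      calc ep (q x) * (ep (q x) * ep (q u) * ep (k x u)) = (ep (q x) * ep (q x)) * (ep (q u) * ep (k x u)) := by ring
        _ = _ := by rw [ep_sq, one_mul]
    rw [Finset.sum_congr rfl (fun x _ => h1 x), Finset.sum_comm]
    have h2 : ∀ u : D, ∑ x, ep (q u) * ep (k x u) = if u ∈ R then ep (q u) * Fintype.card D else 0 := by
      intro u
      rw [← Finset.mul_sum]
      rcases sum_hom (fun x => k x u) (fun x y => hk1 x y u) with h3 | ⟨h3, h4⟩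
      · split_ifs with hu
        · exfalso
          rw [hR] at hu
          rw [Finset.sum_congr rfl (fun x _ => by rw [hu x])] at h3
          simp [ep_zero] at h3
        · rw [h3, mul_zero]
      · rw [if_pos ((hR u).2 h3), h4]
    rw [Finset.sum_congr rfl (fun u _ => h2 u), ← Finset.sum_filter, ← Finset.sum_mul, mul_comm]
    congr 1
    rw [Finset.sum_subtype (p := fun u => u ∈ R) (Finset.univ.filter fun u => u ∈ R) (by simp)]
  rcases sum_hom (D := R) (fun u => q u) (fun x y => by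
      rw [Subgroup.coe_mul, hq, y.2 x, add_zero]) with h3 | ⟨h3, h4⟩
  · left
    rw [h3, mul_zero] at key
    exact pow_eq_zero_iff (two_ne_zero) |>.1 key
  · right
    refine ⟨R, fun z hz => hz, ?_⟩
    rw [key, h4, Nat.card_eq_fintype_card, Nat.card_eq_fintype_card]

theorem pow_of_sq {T : ℤ} {a : ℕ} (h : T ^ 2 = 2 ^ a) : ∃ m, a = 2 * m ∧ (T = 2 ^ m ∨ T = - 2 ^ m) := by
  have h1 : T.natAbs ^ 2 = 2 ^ a := by
    have := congrArg Int.natAbs h
    rw [Int.natAbs_pow, Int.natAbs_pow] at this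
    exact this
  obtain ⟨m, -, hm⟩ := (Nat.dvd_prime_pow Nat.prime_two).1 (show T.natAbs ∣ 2 ^ a from by
    rw [← h1]; exact dvd_pow_self _ two_ne_zero)
  refine ⟨m, ?_, ?_⟩
  · rw [hm, ← pow_mul] at h1
    have := Nat.pow_right_injective (le_refl 2) h1
    omega
  · rcases Int.natAbs_eq T with h2 | h2
    · left; rw [h2, hm]; push_cast; rfl
    · right; rw [h2, hm]; push_cast; rfl

/-- `T = 0` or `T = ± 2 ^ m` with `c ≤ 2 m`. -/
def OK (c : ℕ) (T : ℤ) : Prop := T = 0 ∨ ∃ m, c ≤ 2 * m ∧ (T = 2 ^ m ∨ T = - 2 ^ m)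

theorem gauss2 {d s : ℕ} (hD : Nat.card D = 2 ^ d) (Z : Subgroup D) (hZ : Nat.card Z = 2 ^ s)
    (q : D → ZMod 2) (k : D → D → ZMod 2) (hq : ∀ x u, q (x * u) = q x + q u + k x u)
    (hk1 : ∀ x y u, k (x * y) u = k x u + k y u) (hk2 : ∀ x u v, k x (u * v) = k x u + k x v)
    (hkZ : ∀ x, ∀ z ∈ Z, k x z = 0) : OK (d + s) (∑ x, ep (q x)) := by
  rcases gauss q k hq hk1 hk2 with h | ⟨R, h1, h2⟩
  · exact Or.inl h
  · right
    have hZR : Z ≤ R := fun z hz => h1 z (fun x => hkZ x z hz)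
    have h3 : Nat.card R ∣ 2 ^ d := by rw [← hD]; exact Subgroup.card_subgroup_dvd_card R
    obtain ⟨r, hr, hr'⟩ := (Nat.dvd_prime_pow Nat.prime_two).1 h3
    have h4 : s ≤ r := by
      have := Subgroup.card_dvd_of_le hZR
      rw [hZ, hr'] at this
      exact (Nat.pow_dvd_pow_iff_le_right (le_refl 2)).1 this
    rw [hD, hr'] at h2
    push_cast at h2
    rw [← pow_add] at h2
    obtain ⟨m, hm, hm'⟩ := pow_of_sq h2
    exact ⟨m, by omega, hm'⟩

/-- The data: a group with a quadratic map to `ZMod 2 × ZMod 2`. -/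
structure Dat (D : Type*) [Group D] (Z : Subgroup D) (Q : D → ZMod 2 × ZMod 2) : Prop where
  ex : ∃ k : D → D → ZMod 2 × ZMod 2, (∀ x u, Q (x * u) = Q x + Q u + k x u) ∧
    (∀ x y u, k (x * y) u = k x u + k y u) ∧ (∀ x u v, k x (u * v) = k x u + k x v) ∧
    (∀ x, ∀ z ∈ Z, k x z = 0)
  hZ : ∀ x, Q x = 0 ↔ x ∈ Z

theorem Dat.sub {D : Type*} [Group D] {Z : Subgroup D} {Q : D → ZMod 2 × ZMod 2} (h : Dat D Z Q)
    (E : Subgroup D) : Dat E (Z.subgroupOf E) (fun x => Q x) := by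
  obtain ⟨k, h1, h2, h3, h4⟩ := h.ex
  refine ⟨⟨fun x y => k x y, ?_, ?_, ?_, ?_⟩, ?_⟩
  · intro x u; exact h1 x u
  · intro x y u; exact h2 x y u
  · intro x u v; exact h3 x u v
  · intro x z hz; exact h4 x z (Subgroup.mem_subgroupOf.1 hz)
  · intro x; rw [Subgroup.mem_subgroupOf]; exact h.hZ x

/-- the fibre sizes -/
noncomputable def fib (Q : D → ZMod 2 × ZMod 2) (v : ZMod 2 × ZMod 2) : ℕ := (univ.filter fun x => Q x = v).card

omit [Group D] in
theorem sum_fib (Q : D → ZMod 2 × ZMod 2) (g : ZMod 2 × ZMod 2 → ℤ) :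
    ∑ x, g (Q x) = g (0,0) * fib Q (0,0) + g (1,0) * fib Q (1,0) + g (0,1) * fib Q (0,1) + g (1,1) * fib Q (1,1) := by
  have h1 := Finset.sum_fiberwise_of_maps_to (s := (univ : Finset D)) (t := (univ : Finset (ZMod 2 × ZMod 2)))
    (g := Q) (fun _ _ => mem_univ _) (fun x => g (Q x))
  rw [← h1]
  have h2 : ∀ v : ZMod 2 × ZMod 2, ∑ x ∈ univ.filter (fun x => Q x = v), g (Q x) = g v * fib Q v := by
    intro v
    rw [Finset.sum_congr rfl (g := fun _ => g v) (fun x hx => by rw [(mem_filter.1 hx).2])]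
    rw [Finset.sum_const, nsmul_eq_mul, mul_comm]
    rfl
  rw [Finset.sum_congr rfl (fun v _ => h2 v)]
  rw [show (univ : Finset (ZMod 2 × ZMod 2)) = {(0,0), (1,0), (0,1), (1,1)} from by decide]
  rw [Finset.sum_insert (by decide), Finset.sum_insert (by decide), Finset.sum_insert (by decide), Finset.sum_singleton]
  ring

theorem Dat.num {Z : Subgroup D} {Q : D → ZMod 2 × ZMod 2} (h : Dat D Z Q) {d s : ℕ}
    (hD : Nat.card D = 2 ^ d) (hZ : Nat.card Z = 2 ^ s) :
    fib Q (0,0) = 2 ^ s ∧ fib Q (0,0) + fib Q (1,0) + fib Q (0,1) + fib Q (1,1) = 2 ^ d ∧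
    OK (d + s) (fib Q (0,0) - fib Q (1,0) + fib Q (0,1) - fib Q (1,1)) ∧
    OK (d + s) (fib Q (0,0) + fib Q (1,0) - fib Q (0,1) - fib Q (1,1)) ∧
    OK (d + s) (fib Q (0,0) - fib Q (1,0) - fib Q (0,1) + fib Q (1,1)) := by
  classical
  obtain ⟨k, h1, h2, h3, h4⟩ := h.ex
  refine ⟨?_, ?_, ?_, ?_, ?_⟩
  · rw [← hZ, fib, Nat.card_eq_fintype_card, Fintype.card_subtype]
    congr 1
    ext x
    simp only [mem_filter, mem_univ, true_and]
    exact h.hZ x
  · have := sum_fib Q (fun _ => 1)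
    rw [Finset.sum_const, nsmul_eq_mul, Finset.card_univ, ← Nat.card_eq_fintype_card, hD] at this
    push_cast at this
    have h5 : (2 : ℤ) ^ d = fib Q (0,0) + fib Q (1,0) + fib Q (0,1) + fib Q (1,1) := by linarith
    exact_mod_cast h5.symm
  · have := gauss2 hD Z hZ (fun x => (Q x).1) (fun x y => (k x y).1) (fun x u => by rw [h1]; rfl)
      (fun x y u => by rw [h2]; rfl) (fun x u v => by rw [h3]; rfl) (fun x z hz => by rw [h4 x z hz]; rfl)
    rw [sum_fib Q (fun v => ep v.1)] at this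
    convert this using 1
    simp only [show ep 0 = 1 from by decide, show ep 1 = -1 from by decide]
    ring
  · have := gauss2 hD Z hZ (fun x => (Q x).2) (fun x y => (k x y).2) (fun x u => by rw [h1]; rfl)
      (fun x y u => by rw [h2]; rfl) (fun x u v => by rw [h3]; rfl) (fun x z hz => by rw [h4 x z hz]; rfl)
    rw [sum_fib Q (fun v => ep v.2)] at this
    convert this using 1
    simp only [show ep 0 = 1 from by decide, show ep 1 = -1 from by decide]
    ring
  · have := gauss2 hD Z hZ (fun x => (Q x).1 + (Q x).2) (fun x y => (k x y).1 + (k x y).2)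
      (fun x u => by rw [h1]; simp only [Prod.fst_add, Prod.snd_add]; ring)
      (fun x y u => by rw [h2]; simp only [Prod.fst_add, Prod.snd_add]; ring)
      (fun x u v => by rw [h3]; simp only [Prod.fst_add, Prod.snd_add]; ring)
      (fun x z hz => by rw [h4 x z hz]; simp)
    rw [sum_fib Q (fun v => ep (v.1 + v.2))] at this
    convert this using 1
    simp only [show ep (0 + 0) = 1 from by decide, show ep (1 + 0) = -1 from by decide,
      show ep (0 + 1) = -1 from by decide, show ep (1 + 1) = 1 from by decide]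
    ring


theorem fib_mod {Q : D → ZMod 2 × ZMod 2} {p : ℕ} [Fact p.Prime] (f : MulAut D) (hf : f ^ p = 1)
    (hQ : ∀ x, Q (f x) = Q x) (E : Subgroup D) [Fintype E] (hE : ∀ x, x ∈ E ↔ f x = x) (v : ZMod 2 × ZMod 2) :
    fib Q v ≡ fib (fun x : E => Q x) v [MOD p] := by
  classical
  let F : Function.End {x : D // Q x = v} := fun x => ⟨f x, by rw [hQ, x.2]⟩
  have hFn : ∀ (n : ℕ) (x : {x : D // Q x = v}), ((F ^ n) x : D) = (f ^ n) x := by
    intro n
    induction n with
    | zero => intro x; rfl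
    | succ n ih =>
      intro x
      rw [pow_succ', pow_succ', MulAut.mul_apply, ← ih]
      rfl
  have hF : F ^ p ^ 1 = 1 := by
    funext x
    apply Subtype.ext
    rw [hFn, pow_one, hf]
    rfl
  have h1 := Equiv.Perm.card_fixedPoints_modEq (f := F) hF
  have h2 : Fintype.card {x : D // Q x = v} = fib Q v := Fintype.card_subtype _
  have h3 : Fintype.card F.fixedPoints = fib (fun x : E => Q x) v := by
    rw [fib, ← Fintype.card_subtype]
    apply Fintype.card_congr
    exact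
      { toFun := fun x => ⟨⟨x.1.1, (hE _).2 (congrArg Subtype.val x.2)⟩, x.1.2⟩
        invFun := fun x => ⟨⟨x.1.1, x.2⟩, Subtype.ext ((hE _).1 x.1.2)⟩
        left_inv := fun x => rfl
        right_inv := fun x => rfl }
  rw [h2, h3] at h1
  exact h1

theorem OK.cases {c : ℕ} {T : ℤ} (h : OK c T) (hc : 7 ≤ c) (h1 : T ≤ 64) (h2 : -64 ≤ T) :
    T = 0 ∨ T = 16 ∨ T = -16 ∨ T = 32 ∨ T = -32 ∨ T = 64 ∨ T = -64 := by
  rcases h with h | ⟨m, hm, h⟩
  · exact Or.inl h
  · have h3 : m < 7 := by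
      by_contra hc
      push Not at hc
      have : (2 : ℤ) ^ 7 ≤ 2 ^ m := pow_le_pow_right₀ (by norm_num) hc
      rcases h with h | h <;> (rw [h] at h1 h2; omega)
    have h4 : 4 ≤ m := by omega
    interval_cases m <;> omega

theorem OK.cases6 {T : ℤ} (h : OK 6 T) (h1 : T ≤ 16) (h2 : -16 ≤ T) :
    T = 0 ∨ T = 8 ∨ T = -8 ∨ T = 16 ∨ T = -16 := by
  rcases h with h | ⟨m, hm, h⟩
  · exact Or.inl h
  · have h3 : m < 5 := by
      by_contra hc
      push Not at hc
      have : (2 : ℤ) ^ 5 ≤ 2 ^ m := pow_le_pow_right₀ (by norm_num) hc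
      rcases h with h | h <;> (rw [h] at h1 h2; omega)
    have h4 : 3 ≤ m := by omega
    interval_cases m <;> omega

theorem OK.dvd {c k : ℕ} {T : ℤ} (h : OK c T) (hc : 2 * k ≤ c + 1) : (2 : ℤ) ^ k ∣ T := by
  rcases h with h | ⟨m, hm, h⟩
  · rw [h]; exact dvd_zero _
  · have h3 : k ≤ m := by omega
    rcases h with h | h
    · rw [h]; exact pow_dvd_pow _ h3
    · rw [h]; exact (dvd_neg).2 (pow_dvd_pow _ h3)

theorem Dat.d_le {Z : Subgroup D} {Q : D → ZMod 2 × ZMod 2} (h : Dat D Z Q) {d : ℕ}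
    (hD : Nat.card D = 2 ^ d) (hZ : Nat.card Z = 2 ^ 2) : d ≤ 6 := by
  obtain ⟨h1, h2, h3, h4, h5⟩ := h.num hD hZ
  by_contra hc
  push Not at hc
  have h6 := h3.dvd (k := 5) (by omega)
  have h7 := h4.dvd (k := 5) (by omega)
  have h8 := h5.dvd (k := 5) (by omega)
  have h9 : (2 : ℤ) ^ 5 ∣ 2 ^ d := pow_dvd_pow _ (by omega)
  have h10 : (2 : ℤ) ^ d = fib Q (0,0) + fib Q (1,0) + fib Q (0,1) + fib Q (1,1) := by exact_mod_cast h2.symm
  have h11 : (fib Q (0,0) : ℤ) = 4 := by exact_mod_cast h1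
  rw [h10] at h9
  norm_num at h6 h7 h8 h9
  omega

theorem Dat.d_le_small {Z : Subgroup D} {Q : D → ZMod 2 × ZMod 2} (h : Dat D Z Q) {d s : ℕ}
    (hD : Nat.card D = 2 ^ d) (hZ : Nat.card Z = 2 ^ s) (hs : s ≤ 1) (w : ZMod 2 × ZMod 2)
    (hw : ∀ x, Q x = 0 ∨ Q x = w) : d ≤ s + 2 := by
  obtain ⟨h1, h2, h3, h4, h5⟩ := h.num hD hZ
  have h0 : ∀ v : ZMod 2 × ZMod 2, v ≠ 0 → v ≠ w → fib Q v = 0 := by
    intro v hv hvw
    rw [fib, Finset.card_eq_zero, Finset.filter_eq_empty_iff]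
    intro x _ hx
    rcases hw x with h | h
    · exact hv (hx.symm.trans h)
    · exact hvw (hx.symm.trans h)
  by_contra hc
  push Not at hc
  have h6 := h3.dvd (k := s + 2) (by omega)
  have h7 := h4.dvd (k := s + 2) (by omega)
  have h8 := h5.dvd (k := s + 2) (by omega)
  have h9 : (2 : ℤ) ^ (s + 2) ∣ 2 ^ d := pow_dvd_pow _ (by omega)
  have h10 : (2 : ℤ) ^ d = fib Q (0,0) + fib Q (1,0) + fib Q (0,1) + fib Q (1,1) := by exact_mod_cast h2.symm
  have h11 : (fib Q (0,0) : ℤ) = 2 ^ s := by exact_mod_cast h1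
  rw [h10] at h9
  have hw4 : w = (0,0) ∨ w = (1,0) ∨ w = (0,1) ∨ w = (1,1) :=
    (show ∀ w : ZMod 2 × ZMod 2, w = (0,0) ∨ w = (1,0) ∨ w = (0,1) ∨ w = (1,1) from by decide) w
  interval_cases s <;> norm_num at h6 h7 h8 h9 h11 <;> rcases hw4 with rfl | rfl | rfl | rfl
  all_goals
    have e1 := h0 (1,0)
    have e2 := h0 (0,1)
    have e3 := h0 (1,1)
    first
    | (have e1' := e1 (by decide) (by decide); have e2' := e2 (by decide) (by decide); omega)
    | (have e1' := e1 (by decide) (by decide); have e2' := e3 (by decide) (by decide); omega)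
    | (have e1' := e2 (by decide) (by decide); have e2' := e3 (by decide) (by decide); omega)

theorem two_pow_sub_one_dvd {p d e : ℕ} (hp : p.Prime) (hp2 : p ≠ 2) (hed : e < d)
    (h : 2 ^ d ≡ 2 ^ e [MOD p]) : p ∣ 2 ^ (d - e) - 1 := by
  have h1 : p ∣ 2 ^ d - 2 ^ e := (Nat.modEq_iff_dvd' (Nat.pow_le_pow_right (by norm_num) hed.le)).1 h.symm
  have h2 : 2 ^ d - 2 ^ e = 2 ^ e * (2 ^ (d - e) - 1) := by
    rw [Nat.mul_sub, mul_one, ← pow_add, Nat.add_sub_cancel' hed.le]
  rw [h2] at h1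
  rcases (hp.dvd_mul).1 h1 with h3 | h3
  · exact absurd ((Nat.prime_dvd_prime_iff_eq hp Nat.prime_two).1 (hp.dvd_of_dvd_pow h3)) hp2
  · exact h3

omit [Fintype D] in
theorem dat_card {Z : Subgroup D} {f : MulAut D} (hfZ : ∀ z ∈ Z, f z = z) {E : Subgroup D}
    (hE : ∀ x, x ∈ E ↔ f x = x) : Nat.card (Z.subgroupOf E) = Nat.card Z := by
  have h1 : Z ≤ E := fun z hz => (hE z).2 (hfZ z hz)
  exact Nat.card_congr (Subgroup.subgroupOfEquivOfLe h1).toEquiv

theorem main {Z : Subgroup D} {Q : D → ZMod 2 × ZMod 2} (h : Dat D Z Q) {d s : ℕ}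
    (hD : Nat.card D = 2 ^ d) (hZ : Nat.card Z = 2 ^ s) (hs : s ≤ 2)
    (hw : s ≤ 1 → ∃ w, ∀ x, Q x = 0 ∨ Q x = w)
    {p : ℕ} [hp : Fact p.Prime] (hp2 : p ≠ 2) (f : MulAut D) (hf : f ^ p = 1) (hf1 : f ≠ 1)
    (hQ : ∀ x, Q (f x) = Q x) (hfZ : ∀ z ∈ Z, f z = z) :
    (p = 3 ∨ (p = 5 ∧ d = 6 ∧ s = 2 ∧ fib Q (1,0) = 20 ∧ fib Q (0,1) = 20 ∧ fib Q (1,1) = 20)) ∧
    (p = 3 → d = 6 → s = 2 → fib Q (1,0) = 20 → fib Q (0,1) = 20 → fib Q (1,1) = 20 → False) := by
  classical
  let E : Subgroup D :=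
    { carrier := {x | f x = x}
      one_mem' := map_one f
      mul_mem' := by intro a b ha hb; show f (a * b) = a * b; rw [map_mul, show f a = a from ha, show f b = b from hb]
      inv_mem' := by intro a ha; show f a⁻¹ = a⁻¹; rw [map_inv, show f a = a from ha] }
  have hE : ∀ x, x ∈ E ↔ f x = x := fun x => Iff.rfl
  have hcE : Nat.card E ∣ 2 ^ d := by rw [← hD]; exact Subgroup.card_subgroup_dvd_card E
  obtain ⟨e, he, hcE'⟩ := (Nat.dvd_prime_pow Nat.prime_two).1 hcE
  have hed : e < d := by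
    rcases lt_or_eq_of_le he with h1 | h1
    · exact h1
    · exfalso
      apply hf1
      have h2 : E = ⊤ := Subgroup.eq_top_of_card_eq E (by rw [hcE', hD, h1])
      ext x
      have : x ∈ E := by rw [h2]; exact Subgroup.mem_top x
      exact this
  have hZE : Nat.card (Z.subgroupOf E) = 2 ^ s := by rw [dat_card hfZ hE, hZ]
  have hse : s ≤ e := by
    have := Subgroup.card_subgroup_dvd_card (Z.subgroupOf E)
    rw [hZE, hcE'] at this
    exact (Nat.pow_dvd_pow_iff_le_right (le_refl 2)).1 this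
  obtain ⟨a1, a2, a3, a4, a5⟩ := h.num hD hZ
  obtain ⟨b1, b2, b3, b4, b5⟩ := (h.sub E).num hcE' hZE
  have m0 := fib_mod f hf hQ E hE (0,0)
  have m1 := fib_mod f hf hQ E hE (1,0)
  have m2 := fib_mod f hf hQ E hE (0,1)
  have m3 := fib_mod f hf hQ E hE (1,1)
  have hmod : 2 ^ d ≡ 2 ^ e [MOD p] := by
    rw [← a2, ← b2]
    exact ((m0.add m1).add m2).add m3
  have hdv := two_pow_sub_one_dvd hp.out hp2 hed hmod
  generalize fib Q (0,0) = x0 at *
  generalize fib Q (1,0) = x1 at *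
  generalize fib Q (0,1) = x2 at *
  generalize fib Q (1,1) = x3 at *
  generalize fib (fun x : E => Q x) (0,0) = y0 at *
  generalize fib (fun x : E => Q x) (1,0) = y1 at *
  generalize fib (fun x : E => Q x) (0,1) = y2 at *
  generalize fib (fun x : E => Q x) (1,1) = y3 at *
  have hp1 : p ≠ 1 := hp.out.ne_one
  by_cases hs1 : s ≤ 1
  · obtain ⟨w, hw'⟩ := hw hs1
    have h1 := h.d_le_small hD hZ hs1 w hw'
    refine ⟨Or.inl ?_, fun _ _ h2 => absurd hs1 (by omega)⟩
    have h2 : d - e = 1 ∨ d - e = 2 := by omega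
    rcases h2 with h2 | h2
    · rw [h2] at hdv
      norm_num at hdv
      exact absurd hdv hp1
    · rw [h2] at hdv
      norm_num at hdv
      exact (Nat.prime_dvd_prime_iff_eq hp.out (by norm_num)).1 hdv
  · have hs2 : s = 2 := by omega
    subst hs2
    have h1 := h.d_le hD hZ
    have h2 : d - e = 1 ∨ d - e = 2 ∨ d - e = 3 ∨ d - e = 4 := by omega
    have hpc : (p = 3 ∧ (d - e = 2 ∨ d - e = 4)) ∨ (p = 5 ∧ d = 6 ∧ e = 2) ∨ (p = 7 ∧ ((d = 5 ∧ e = 2) ∨ (d = 6 ∧ e = 3))) := by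
      rcases h2 with h2 | h2 | h2 | h2
      · rw [h2] at hdv
        norm_num at hdv
        exact absurd hdv hp1
      · rw [h2] at hdv
        norm_num at hdv
        exact Or.inl ⟨(Nat.prime_dvd_prime_iff_eq hp.out (by norm_num)).1 hdv, Or.inl h2⟩
      · rw [h2] at hdv
        norm_num at hdv
        refine Or.inr (Or.inr ⟨(Nat.prime_dvd_prime_iff_eq hp.out (by norm_num)).1 hdv, by omega⟩)
      · rw [h2] at hdv
        norm_num at hdv
        rcases (hp.out.dvd_mul (m := 3) (n := 5)).1 hdv with h3 | h3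
        · exact Or.inl ⟨(Nat.prime_dvd_prime_iff_eq hp.out (by norm_num)).1 h3, Or.inr h2⟩
        · exact Or.inr (Or.inl ⟨(Nat.prime_dvd_prime_iff_eq hp.out (by norm_num)).1 h3, by omega⟩)
    rcases hpc with ⟨rfl, h3⟩ | ⟨rfl, rfl, rfl⟩ | ⟨rfl, ⟨rfl, rfl⟩ | ⟨rfl, rfl⟩⟩
    · refine ⟨Or.inl rfl, ?_⟩
      rintro - rfl - rfl rfl rfl
      unfold Nat.ModEq at m0 m1 m2 m3
      have h4 : e = 2 ∨ e = 4 := by omega
      rcases h4 with rfl | rfl
      · norm_num at b1 b2
        omega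
      · norm_num at b1 b2 b3 b4 b5
        have c3 := b3.cases6 (by omega) (by omega)
        have c4 := b4.cases6 (by omega) (by omega)
        have c5 := b5.cases6 (by omega) (by omega)
        omega
    · refine ⟨Or.inr ⟨rfl, rfl, rfl, ?_⟩, fun h5 => absurd h5 (by norm_num)⟩
      unfold Nat.ModEq at m0 m1 m2 m3
      norm_num at a1 a2 a3 a4 a5 b1 b2
      have c3 := a3.cases (by omega) (by omega) (by omega)
      have c4 := a4.cases (by omega) (by omega) (by omega)
      have c5 := a5.cases (by omega) (by omega) (by omega)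
      omega
    · exfalso
      unfold Nat.ModEq at m0 m1 m2 m3
      norm_num at a1 a2 a3 a4 a5 b1 b2
      have c3 := a3.cases (by omega) (by omega) (by omega)
      have c4 := a4.cases (by omega) (by omega) (by omega)
      have c5 := a5.cases (by omega) (by omega) (by omega)
      omega
    · exfalso
      unfold Nat.ModEq at m0 m1 m2 m3
      norm_num at a1 a2 a3 a4 a5 b1 b2
      have c3 := a3.cases (by omega) (by omega) (by omega)
      have c4 := a4.cases (by omega) (by omega) (by omega)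
      have c5 := a5.cases (by omega) (by omega) (by omega)
      omega

end Cfsg.Agent.H35.ThreeInv
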